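import Cfsg.Agent.Blocks.IsaacsSmith

/-!
# The orthogonality core of the theorem of Isaacs and Smith

Under the restriction hypothesis the elements of order prime to `p` of `N(P) ∩ L` centralize `P`.
-/

set_option autoImplicit false

namespace CfsgLib.Blocks.IsaacsSmith

open Cfsg CfsgLib CfsgLib.Blocks
open scoped ComplexConjugate

universe u

variable {G : Type u} [Group G] [Fintype G] {p : ℕ} [Fact p.Prime] {M : Ideal AlgInt}


variable (P : Sylow p G)

/-- The normalizer of the Sylow subgroup. -/
abbrev nrmz : Subgroup G := Subgroup.normalizer ((P : Subgroup G) : Set G)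

/-- The Sylow subgroup inside its normalizer. -/
abbrev sylN : Subgroup (nrmz P) := (P : Subgroup G).subgroupOf (nrmz P)

/-- The p'-part of the centralizer inside the normalizer. -/
noncomputable abbrev regN : Subgroup (nrmz P) := (regCentralizer p (P : Subgroup G)).subgroupOf (nrmz P)

omit [Fintype G] [Fact p.Prime] in
theorem regN_normal : (regN P).Normal :=
  Subgroup.normal_subgroupOf_of_le_normalizer (le_normalizer_regCentralizer _)

/-- The weighted sum of the principal block. -/
noncomputable def wSum (M : Ideal AlgInt) (g : G) : ℂ :=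
  ∑ χ ∈ (principalBlock M G).toFinite.toFinset, (χ : G → ℂ) 1 * (χ : G → ℂ) g

omit [Fact p.Prime] in
theorem wSum_eq_zero (hM : IsPModular p M) {g : G} (hg : p ∣ orderOf g) :
    wSum M g = 0 := by
  rw [wSum, ← finsum_block_one_mul_singular hM (PrincipalLinear.isPBlock_principal M) hg,
    finsum_block_eq_sum]

variable {P}

theorem le_charKer_iff_restrict {χ : IrrCharacter G}
    (hirr : IsIrrCharacter (nrmz P) (fun n : (nrmz P) => (χ : G → ℂ) n)) :
    sylN P ⊔ regN P ≤ Chars.charKer (fun n : (nrmz P) => (χ : G → ℂ) n) ↔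
      bigClosure P ≤ Chars.charKer (χ : G → ℂ) := by
  have hc := Chars.isCharacter_of_isIrrCharacter hirr
  have hχ := Chars.isCharacter_coe χ
  haveI := Chars.charKer_normal (Chars.isClassFunction_coe χ)
  constructor
  · intro h
    have hker : ∀ x : (nrmz P), x ∈ sylN P ⊔ regN P → (x : G) ∈ Chars.charKer (χ : G → ℂ) :=
      fun x hx => (Chars.mem_charKer_iff hχ).2 ((Chars.mem_charKer_iff hc).1 (h hx))
    have hP : (P : Subgroup G) ≤ Chars.charKer (χ : G → ℂ) := fun x hx =>
      hker ⟨x, Subgroup.le_normalizer hx⟩ (Subgroup.mem_sup_left (Subgroup.mem_subgroupOf.2 hx))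
    refine sup_le (Subgroup.normalClosure_le_normal hP) fun c hc' => ?_
    obtain ⟨a, ha, b, hb, rfl⟩ := exists_decomp_centralizer P hc'
    refine mul_mem (hP ha) ?_
    exact hker ⟨b, Subgroup.centralizer_le_normalizer _ (regCentralizer_le _ hb)⟩
      (Subgroup.mem_sup_right (Subgroup.mem_subgroupOf.2 hb))
  · intro h
    refine sup_le (fun x hx => ?_) (fun x hx => ?_) <;> refine (Chars.mem_charKer_iff hc).2 ?_
    · exact (Chars.mem_charKer_iff hχ).1 (h (sylow_le_bigClosure P hx))
    · exact (Chars.mem_charKer_iff hχ).1 (h (Subgroup.mem_sup_right (regCentralizer_le _ hx)))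

variable (hM : IsPModular p M) (hR : RestrictsIrr M (nrmz P))
include hM hR

open Classical in
theorem coset_sum (h : (nrmz P)) :
    ∑ x : ↥(sylN P ⊔ regN P), wSum M ((h : G) * ((x : (nrmz P)) : G)) =
      (Nat.card ↥(sylN P ⊔ regN P) : ℂ) *
        if (h : G) ∈ bigClosure P then ((bigClosure P).index : ℂ) else 0 := by
  haveI := hM.2.1
  haveI := bigClosure_normal P
  haveI := regN_normal P
  rw [← sum_le_charKer_mul (bigClosure P) (h : G)]
  simp only [wSum]
  rw [Finset.sum_comm, Finset.mul_sum]
  symm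
  refine Finset.sum_bij_ne_zero (fun χ _ _ => χ) ?_ ?_ ?_ ?_
  · intro χ hχ _
    exact (Set.Finite.mem_toFinset _).2
      (mem_principalBlock_of_bigClosure_le P hM (Finset.mem_filter.1 hχ).2)
  · intro a _ _ b _ _ hab; exact hab
  · intro χ hχ hne
    have hχB := (Set.Finite.mem_toFinset _).1 hχ
    have hirr := hR χ hχB
    by_cases hker : bigClosure P ≤ Chars.charKer (χ : G → ℂ)
    · refine ⟨χ, Finset.mem_filter.2 ⟨Finset.mem_univ _, hker⟩, ?_, rfl⟩
      intro h0
      apply hne
      rw [← Finset.mul_sum, Finset.sum_congr rfl (g := fun _ => (χ : G → ℂ) h), Finset.sum_const,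
        Finset.card_univ, nsmul_eq_mul, ← Nat.card_eq_fintype_card]
      · rw [← h0]; ring
      · intro x _
        rw [Chars.classFunction_mul_comm (Chars.isClassFunction_coe χ)]
        have hx := (le_charKer_iff_restrict hirr).2 hker x.2
        exact Chars.map_mul_of_mem_charKer ((Chars.mem_charKer_iff (Chars.isCharacter_coe χ)).2
          ((Chars.mem_charKer_iff (Chars.isCharacter_of_isIrrCharacter hirr)).1 hx)) _
    · exfalso
      apply hne
      rw [← Finset.mul_sum]
      have h0 := Chars.sum_coset_eq_zero (sylN P ⊔ regN P)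
        (⟨_, hirr⟩ : IrrCharacter (nrmz P)) (fun hc => hker ((le_charKer_iff_restrict hirr).1 hc)) h
      simp only [Subgroup.coe_mul] at h0
      rw [h0, mul_zero]
  · intro χ hχ hne
    have hirr := hR χ (mem_principalBlock_of_bigClosure_le P hM (Finset.mem_filter.1 hχ).2)
    have hker := (Finset.mem_filter.1 hχ).2
    rw [← Finset.mul_sum, Finset.sum_congr rfl (g := fun _ => (χ : G → ℂ) h), Finset.sum_const,
      Finset.card_univ, nsmul_eq_mul, ← Nat.card_eq_fintype_card]
    · ring
    · intro x _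
      rw [Chars.classFunction_mul_comm (Chars.isClassFunction_coe χ)]
      have hx := (le_charKer_iff_restrict hirr).2 hker x.2
      exact Chars.map_mul_of_mem_charKer ((Chars.mem_charKer_iff (Chars.isCharacter_coe χ)).2
        ((Chars.mem_charKer_iff (Chars.isCharacter_of_isIrrCharacter hirr)).1 hx)) _

omit hM hR in
theorem exists_regPart (h : (nrmz P)) :
    ∃ b : (nrmz P), (orderOf b).Coprime p ∧ h⁻¹ * b ∈ sylN P ⊔ regN P := by
  haveI : (sylN P).Normal := Subgroup.normal_in_normalizer
  obtain ⟨a, b, -, -, rfl, hap, hbp⟩ := Transfer.exists_pPart_decomposition (p := p) h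
  refine ⟨b, hbp, Subgroup.mem_sup_left ?_⟩
  have ha : a ∈ sylN P := by
    refine Subgroup.mem_subgroupOf.2 (mem_sylow_of_commute P ?_ a.2)
    simpa [Subgroup.orderOf_coe] using hap
  have := Subgroup.Normal.conj_mem (H := sylN P) inferInstance _ (inv_mem ha) b⁻¹
  convert this using 1
  group

omit hM hR in
theorem value_congr (θ : IrrCharacter (nrmz P)) (hK : regN P ≤ Chars.charKer (θ : (nrmz P) → ℂ))
    {b c : (nrmz P)} (hb : (orderOf b).Coprime p) (hc : (orderOf c).Coprime p)
    (hbc : b⁻¹ * c ∈ sylN P ⊔ regN P) : (θ : (nrmz P) → ℂ) b = (θ : (nrmz P) → ℂ) c := by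
  haveI := regN_normal P
  haveI : (sylN P).Normal := Subgroup.normal_in_normalizer
  obtain ⟨ψ, rfl⟩ := Chars.exists_inflate_eq (regN P) θ hK
  haveI := Subgroup.Normal.map (inferInstance : (sylN P).Normal) (QuotientGroup.mk' (regN P))
    (QuotientGroup.mk'_surjective _)
  have hQ : IsPGroup p ((sylN P).map (QuotientGroup.mk' (regN P))) :=
    (P.2.comap_of_injective (nrmz P).subtype (nrmz P).subtype_injective).map _
  have h1 := isConj_of_congr hQ (a := QuotientGroup.mk' (regN P) b)
    (b := QuotientGroup.mk' (regN P) c)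
    (hb.coprime_dvd_left (orderOf_map_dvd _ b)) (hc.coprime_dvd_left (orderOf_map_dvd _ c)) (by
      rw [← map_inv, ← map_mul]
      have h2 := Subgroup.mem_map_of_mem (QuotientGroup.mk' (regN P)) hbc
      rwa [Subgroup.map_sup, QuotientGroup.map_mk'_self, sup_bot_eq] at h2)
  exact Chars.eq_of_isConj (Chars.isClassFunction_coe ψ) h1

/-- The regular elements of `N(P) ∩ L` lie in the kernels. -/
theorem apply_regular_eq_one {χ₀ : IrrCharacter G} (h₀ : χ₀ ∈ principalBlock M G)
    (hK : regN P ≤ Chars.charKer (fun n : (nrmz P) => (χ₀ : G → ℂ) n))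
    {t : (nrmz P)} (ht : (t : G) ∈ bigClosure P) (htp : (orderOf t).Coprime p) :
    (χ₀ : G → ℂ) t = (χ₀ : G → ℂ) 1 := by
  classical
  haveI := hM.2.1
  haveI := regN_normal P
  haveI := bigClosure_normal P
  haveI : (sylN P).Normal := Subgroup.normal_in_normalizer
  let θ₀ : IrrCharacter (nrmz P) := ⟨_, hR χ₀ h₀⟩
  set D := sylN P ⊔ regN P with hD
  choose b hb using exists_regPart (P := P)
  let v : (nrmz P) → ℂ := fun h => (θ₀ : (nrmz P) → ℂ) (b h)
  have hvD : ∀ (h : (nrmz P)) (x : D), v (h * x) = v h := by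
    intro h x
    refine value_congr θ₀ hK (hb _).1 (hb _).1 ?_
    have e : (b (h * x))⁻¹ * b h =
        ((h * (x : (nrmz P)))⁻¹ * b (h * x))⁻¹ * (x : (nrmz P))⁻¹ * (h⁻¹ * b h) := by group
    rw [e]
    exact D.mul_mem (D.mul_mem (D.inv_mem (hb _).2) (D.inv_mem x.2)) (hb _).2
  have hvreg : ∀ h : (nrmz P), (orderOf h).Coprime p → v h = (θ₀ : (nrmz P) → ℂ) h := fun h hh =>
    (value_congr θ₀ hK hh (hb h).1 (hb h).2).symm
  set A : ℂ := ∑ h : (nrmz P), wSum M (h : G) * conj (v h) with hA
  have hA1 : A = (Nat.card (nrmz P) : ℂ) * ∑ χ ∈ (principalBlock M G).toFinite.toFinset,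
      (χ : G → ℂ) 1 * (if hχ : χ ∈ principalBlock M G then
        (if (⟨_, hR χ hχ⟩ : IrrCharacter (nrmz P)) = θ₀ then (1 : ℂ) else 0) else 0) := by
    have e : ∀ h : (nrmz P), wSum M (h : G) * conj (v h) = wSum M (h : G) * conj ((θ₀ : (nrmz P) → ℂ) h) := by
      intro h
      by_cases hh : (orderOf h).Coprime p
      · rw [hvreg h hh]
      · rw [wSum_eq_zero hM (g := (h : G)) (by
          rw [Subgroup.orderOf_coe]
          by_contra hd
          exact hh (Nat.Coprime.symm ((Fact.out : p.Prime).coprime_iff_not_dvd.2 hd))), zero_mul,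
          zero_mul]
    rw [hA, Finset.sum_congr rfl fun h _ => e h]
    simp only [wSum, Finset.sum_mul, Finset.mul_sum]
    rw [Finset.sum_comm]
    refine Finset.sum_congr rfl fun χ hχ => ?_
    have hχB := (Set.Finite.mem_toFinset _).1 hχ
    rw [dif_pos hχB, ← Chars.classInner_irr (⟨_, hR χ hχB⟩ : IrrCharacter (nrmz P)) θ₀, classInner]
    simp only [← Finset.mul_sum]
    have hne : (Nat.card (nrmz P) : ℂ) ≠ 0 := Chars.natCard_ne_zero
    field_simp
    rw [Finset.mul_sum]
    refine Finset.sum_congr rfl fun h _ => ?_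
    ring
  have hA2 : (Nat.card D : ℂ) * A = (Nat.card D : ℂ) *
      (((bigClosure P).index : ℂ) *
        ∑ h ∈ Finset.univ.filter (fun h : (nrmz P) => (h : G) ∈ bigClosure P), conj (v h)) := by
    have e : ∀ x : D, A = ∑ h : (nrmz P), wSum M ((h : G) * ((x : (nrmz P)) : G)) * conj (v h) := fun x => by
      rw [hA, ← Equiv.sum_comp (Equiv.mulRight (x : (nrmz P)))]
      refine Finset.sum_congr rfl fun h _ => ?_
      rw [Equiv.coe_mulRight, hvD, Subgroup.coe_mul]
    calc (Nat.card D : ℂ) * A = ∑ _x : D, A := by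
          rw [Finset.sum_const, Finset.card_univ, nsmul_eq_mul, Nat.card_eq_fintype_card]
      _ = ∑ h : (nrmz P), (∑ x : D, wSum M ((h : G) * ((x : (nrmz P)) : G))) * conj (v h) := by
          rw [Finset.sum_congr rfl fun x _ => e x, Finset.sum_comm]
          simp only [Finset.sum_mul]
      _ = _ := by
          rw [Finset.sum_congr rfl (fun (h : (nrmz P)) (_ : h ∈ Finset.univ) =>
            congrArg (· * conj (v h)) (show ∑ x : D, wSum M ((h : G) * ((x : (nrmz P)) : G)) = _
              from coset_sum hM hR h))]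
          simp only [mul_assoc, ← Finset.mul_sum]
          congr 1
          rw [Finset.mul_sum, Finset.sum_filter]
          refine Finset.sum_congr rfl fun h _ => ?_
          split_ifs <;> simp
  have hA3 := mul_left_cancel₀ (by exact_mod_cast Nat.card_pos.ne') hA2
  set T := Finset.univ.filter (fun h : (nrmz P) => (h : G) ∈ bigClosure P) with hT
  have hcard : T.card * (bigClosure P).index = Nat.card (nrmz P) := by
    have h1 : (bigClosure P).relIndex (nrmz P) = (bigClosure P).index := by
      rw [← Subgroup.relIndex_sup_right, ← Subgroup.relIndex_top_right]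
      congr 1
      exact top_le_iff.1 ((normalizer_sup_normalClosure P).ge.trans
        (sup_le_sup_left le_sup_left _))
    have h2 : T.card = Nat.card ((bigClosure P).subgroupOf (nrmz P)) := by
      rw [Nat.card_eq_fintype_card, hT]
      exact (Fintype.card_of_subtype _ (fun x => by simp [Subgroup.mem_subgroupOf])).symm
    rw [h2, ← h1, Subgroup.relIndex, Subgroup.card_mul_index]
  obtain ⟨n, hn⟩ := Chars.exists_natCast_map_one (Chars.isCharacter_coe θ₀)
  have hn' : (χ₀ : G → ℂ) 1 = n := hn
  have hlow : (Nat.card (nrmz P) : ℝ) * n ≤ A.re := by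
    rw [hA1, ← Complex.ofReal_natCast, Complex.re_ofReal_mul, Complex.re_sum]
    refine mul_le_mul_of_nonneg_left ?_ (Nat.cast_nonneg _)
    refine le_trans (le_of_eq ?_) (Finset.single_le_sum (f := fun χ : IrrCharacter G =>
      ((χ : G → ℂ) 1 * (if hχ : χ ∈ principalBlock M G then
        (if (⟨_, hR χ hχ⟩ : IrrCharacter (nrmz P)) = θ₀ then (1 : ℂ) else 0) else 0)).re)
      (fun χ _ => ?_) ((Set.Finite.mem_toFinset _).2 h₀))
    · show (n : ℝ) = _
      rw [dif_pos h₀, if_pos rfl, mul_one, hn', Complex.natCast_re]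
    · show 0 ≤ _
      obtain ⟨m, hm⟩ := Chars.exists_natCast_map_one (Chars.isCharacter_coe χ)
      rw [hm]
      split_ifs <;> simp
  have hle : ∀ h ∈ T, (conj (v h)).re ≤ (n : ℝ) := fun h _ => by
    rw [Complex.conj_re]
    have := (re_le_map_one (Chars.isCharacter_coe θ₀) (b h)).1
    rwa [hn, Complex.natCast_re] at this
  have hsum : ∑ h ∈ T, (n : ℝ) ≤ ∑ h ∈ T, (conj (v h)).re := by
    rw [hA3, ← Complex.ofReal_natCast, Complex.re_ofReal_mul, Complex.re_sum] at hlow
    have hpos : (0 : ℝ) < (bigClosure P).index := by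
      exact_mod_cast Nat.pos_of_ne_zero Subgroup.index_ne_zero_of_finite
    refine le_of_mul_le_mul_left ?_ hpos
    rw [Finset.sum_const, nsmul_eq_mul, ← mul_assoc]
    calc ((bigClosure P).index : ℝ) * T.card * n = (Nat.card (nrmz P) : ℝ) * n := by
          rw [← hcard]; push_cast; ring
      _ ≤ _ := hlow
  have htT : t ∈ T := Finset.mem_filter.2 ⟨Finset.mem_univ _, ht⟩
  have heq := (Finset.sum_eq_sum_iff_of_le hle).1 (le_antisymm (Finset.sum_le_sum hle) hsum) t htT
  rw [Complex.conj_re, hvreg t htp] at heq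
  have h2 := (re_le_map_one (Chars.isCharacter_coe θ₀) t).2
  rw [hn, Complex.natCast_re] at h2
  have h3 := eq_ofReal_of_le_re h2 heq.ge
  rw [Complex.ofReal_natCast, ← hn] at h3
  exact h3

/-- Every irreducible character of `P` lies under a principal character trivial on the p'-part
of the centralizer. -/
theorem exists_over [Fintype (P : Subgroup G)] (μ : IrrCharacter (P : Subgroup G)) :
    ∃ χ ∈ principalBlock M G, regN P ≤ Chars.charKer (fun n : (nrmz P) => (χ : G → ℂ) n) ∧
      classInner (fun x : (P : Subgroup G) => (χ : G → ℂ) x) (μ : ↥(P : Subgroup G) → ℂ) ≠ 0 := by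
  classical
  haveI := hM.2.1
  haveI := regN_normal P
  by_contra! hnone
  let ι : ↥(P : Subgroup G) → (nrmz P) := fun x => ⟨x, Subgroup.le_normalizer x.2⟩
  set S : ℂ := ∑ x : (P : Subgroup G), (∑ k : regN P, wSum M ((ι x * (k : (nrmz P)) : (nrmz P)) : G)) *
    conj ((μ : ↥(P : Subgroup G) → ℂ) x) with hS
  have hS0 : S = 0 := by
    rw [hS]
    simp only [wSum]
    simp only [Finset.sum_comm (γ := regN P), ← Finset.mul_sum, Finset.sum_mul]
    rw [Finset.sum_comm]
    refine Finset.sum_eq_zero fun χ hχ => ?_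
    have hχB := (Set.Finite.mem_toFinset _).1 hχ
    by_cases hker : regN P ≤ Chars.charKer (fun n : (nrmz P) => (χ : G → ℂ) n)
    · have h0 := hnone χ hχB hker
      rw [classInner, mul_eq_zero] at h0
      have h1 := h0.resolve_left (inv_ne_zero Chars.natCard_ne_zero)
      calc _ = ((χ : G → ℂ) 1 * Nat.card (regN P)) * ∑ x : (P : Subgroup G),
            (χ : G → ℂ) x * conj ((μ : ↥(P : Subgroup G) → ℂ) x) := by
            rw [Finset.mul_sum]
            refine Finset.sum_congr rfl fun x _ => ?_
            rw [Finset.sum_congr rfl (g := fun _ => (χ : G → ℂ) x), Finset.sum_const,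
              Finset.card_univ, nsmul_eq_mul, ← Nat.card_eq_fintype_card]
            · ring
            · intro k _
              rw [Subgroup.coe_mul, Chars.classFunction_mul_comm (Chars.isClassFunction_coe χ)]
              exact Chars.map_mul_of_mem_charKer ((Chars.mem_charKer_iff (Chars.isCharacter_coe χ)).2
                ((Chars.mem_charKer_iff
                  (Chars.isCharacter_of_isIrrCharacter (hR χ hχB))).1 (hker k.2))) _
        _ = 0 := by rw [h1, mul_zero]
    · refine Finset.sum_eq_zero fun x _ => ?_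
      have h1 := Chars.sum_coset_eq_zero (regN P) (⟨_, hR χ hχB⟩ : IrrCharacter (nrmz P)) hker (ι x)
      simp only [Subgroup.coe_mul] at h1 ⊢
      rw [h1, mul_zero, zero_mul]
  have hS1 : S = conj ((μ : ↥(P : Subgroup G) → ℂ) 1) * ∑ k : regN P, wSum M ((k : (nrmz P)) : G) := by
    rw [hS, Finset.sum_eq_single (1 : (P : Subgroup G))]
    · rw [mul_comm]
      congr 1
      refine Finset.sum_congr rfl fun k _ => ?_
      simp [ι]
    · intro x _ hx
      rw [Finset.sum_eq_zero, zero_mul]
      intro k _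
      refine wSum_eq_zero hM ?_
      have hkK : ((k : (nrmz P)) : G) ∈ regCentralizer p (P : Subgroup G) := Subgroup.mem_subgroupOf.1 k.2
      have hcomm : Commute (x : G) ((k : (nrmz P)) : G) :=
        Subgroup.mem_centralizer_iff.1 (regCentralizer_le _ hkK) x x.2
      obtain ⟨j, hj⟩ := IsPGroup.iff_orderOf.1 P.2 x
      have hk : (orderOf ((k : (nrmz P)) : G)).Coprime p :=
        (coprime_card_regCentralizer P).coprime_dvd_left (Subgroup.orderOf_dvd_natCard _ hkK)
      have hcop : (orderOf (x : G)).Coprime (orderOf ((k : (nrmz P)) : G)) := by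
        rw [Subgroup.orderOf_coe, hj]; exact (hk.pow_right j).symm
      show p ∣ orderOf ((x : G) * ((k : (nrmz P)) : G))
      rw [hcomm.orderOf_mul_eq_mul_orderOf_of_coprime hcop]
      refine dvd_mul_of_dvd_left ?_ _
      rw [Subgroup.orderOf_coe, hj]
      rcases Nat.eq_zero_or_pos j with rfl | hj0
      · exact absurd (orderOf_eq_one_iff.1 (hj.trans (pow_zero p))) hx
      · exact dvd_pow_self p hj0.ne'
    · simp
  rw [hS1, mul_eq_zero] at hS0
  rcases hS0 with h0 | h0
  · exact Chars.map_one_ne_zero μ (by simpa using h0)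
  · simp only [wSum] at h0
    rw [Finset.sum_comm] at h0
    have hterm : ∀ χ ∈ (principalBlock M G).toFinite.toFinset, ∃ m : ℕ,
        ∑ k : regN P, (χ : G → ℂ) 1 * (χ : G → ℂ) ((k : (nrmz P)) : G) = m ∧
          (χ = Chars.oneChar G → 0 < m) := by
      intro χ hχ
      have hχB := (Set.Finite.mem_toFinset _).1 hχ
      rw [← Finset.mul_sum, ← Chars.coe_charDegree]
      by_cases hker : regN P ≤ Chars.charKer (fun n : (nrmz P) => (χ : G → ℂ) n)
      · refine ⟨charDegree (χ : G → ℂ) * (Nat.card (regN P) * charDegree (χ : G → ℂ)), ?_,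
          fun _ => Nat.mul_pos (Chars.charDegree_pos χ)
            (Nat.mul_pos Nat.card_pos (Chars.charDegree_pos χ))⟩
        rw [Finset.sum_congr rfl (g := fun _ => (χ : G → ℂ) 1), Finset.sum_const,
          Finset.card_univ, nsmul_eq_mul, ← Nat.card_eq_fintype_card, Nat.cast_mul, Nat.cast_mul,
          Chars.coe_charDegree]
        intro k _
        exact (Chars.mem_charKer_iff (Chars.isCharacter_of_isIrrCharacter (hR χ hχB))).1 (hker k.2)
      · refine ⟨0, ?_, fun he => absurd (fun k _ y => ?_) hker⟩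
        · have h1 := Chars.sum_coset_eq_zero (regN P) (⟨_, hR χ hχB⟩ : IrrCharacter (nrmz P)) hker 1
          simp only [one_mul] at h1
          rw [h1]; simp
        · subst he; simp
    choose m hm using hterm
    rw [Finset.sum_congr rfl (g := fun χ => if hχ : χ ∈ (principalBlock M G).toFinite.toFinset
      then (m χ hχ : ℂ) else 0) (fun χ hχ => by rw [dif_pos hχ]; exact (hm χ hχ).1)] at h0
    have h1 : ∑ χ ∈ (principalBlock M G).toFinite.toFinset,
        (if hχ : χ ∈ (principalBlock M G).toFinite.toFinset then m χ hχ else 0) = 0 := by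
      apply Nat.cast_injective (R := ℂ)
      rw [Nat.cast_sum, Nat.cast_zero, ← h0]
      exact Finset.sum_congr rfl fun χ hχ => by rw [dif_pos hχ, dif_pos hχ]
    have hmem : Chars.oneChar G ∈ (principalBlock M G).toFinite.toFinset :=
      (Set.Finite.mem_toFinset _).2 (PrincipalLinear.one_mem hM)
    have h2 := (Finset.sum_eq_zero_iff.1 h1) _ hmem
    rw [dif_pos hmem] at h2
    exact ((hm _ hmem).2 rfl).ne' h2

/-- The regular elements of `N(P) ∩ L` centralize `P`. -/
theorem mem_centralizer_of_regular {t : G} (htN : t ∈ (nrmz P)) (htL : t ∈ bigClosure P)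
    (htp : (orderOf t).Coprime p) : t ∈ Subgroup.centralizer ((P : Subgroup G) : Set G) := by
  refine Subgroup.mem_centralizer_iff.2 fun y hy => ?_
  have hc : t * y * t⁻¹ * y⁻¹ ∈ (P : Subgroup G) :=
    mul_mem ((Subgroup.mem_normalizer_iff.1 htN y).1 hy) (inv_mem hy)
  have h1 : (⟨t * y * t⁻¹ * y⁻¹, hc⟩ : (P : Subgroup G)) = 1 := by
    refine Chars.eq_one_of_forall_eq fun μ => ?_
    letI := Fintype.ofFinite (P : Subgroup G)
    obtain ⟨χ, hχB, hK, hne⟩ := exists_over hM hR μ
    refine constituent_eq_one (Chars.isCharacter_restrict (Chars.isCharacter_coe χ) _) μ hne ?_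
    have hirr := Chars.isCharacter_of_isIrrCharacter (hR χ hχB)
    haveI := Chars.charKer_normal (Chars.isClassFunction_of_isCharacter hirr)
    have htk : (⟨t, htN⟩ : (nrmz P)) ∈ Chars.charKer (fun n : (nrmz P) => (χ : G → ℂ) n) :=
      (Chars.mem_charKer_iff hirr).2
        (apply_regular_eq_one hM hR hχB hK (t := ⟨t, htN⟩) htL (by rwa [Subgroup.orderOf_mk]))
    have h2 := mul_mem htk (Subgroup.Normal.conj_mem inferInstance _ (inv_mem htk)
      ⟨y, Subgroup.le_normalizer hy⟩)
    have h3 := (Chars.mem_charKer_iff hirr).1 h2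
    simpa [mul_assoc] using h3
  have h2 := congrArg Subtype.val h1
  rw [Subgroup.coe_one, mul_inv_eq_one, mul_inv_eq_iff_eq_mul] at h2
  exact h2.symm

end CfsgLib.Blocks.IsaacsSmith
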