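import Cfsg.Agent.Blocks.IsaacsSmithThm.Core
import Cfsg.Agent.PGroup.Frattini
import Cfsg.Agent.Constrained.PSolvable

/-!
# The theorem of Isaacs and Smith
-/

set_option autoImplicit false

namespace CfsgLib.Blocks.IsaacsSmith

open Cfsg CfsgLib CfsgLib.Blocks
open scoped ComplexConjugate commutatorElement

universe u

variable {G : Type u} [Group G] [Finite G] {p : ℕ} [Fact p.Prime] {M : Ideal AlgInt}
variable {P : Sylow p G}

theorem not_dvd_of_hasNormalPComplement_isPSolvable {X : Type u} [Group X] [Finite X]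
    (h : Cfsg.HasNormalPComplement p X) : IsPSolvable p X := by
  obtain ⟨N, hN, hNc, k, hk⟩ := Transfer.hasNormalPComplement_iff_exists.1 h
  exact Constrained.isPSolvable_of_extension N
    (Constrained.isPSolvable_of_not_dvd (Transfer.not_dvd_of_coprime hNc))
    (Constrained.isPSolvable_of_isPGroup (IsPGroup.of_card (n := k) (by rw [← hk, Subgroup.index_eq_card])))

/-- Some normal subgroup inside `L` meets `P` exactly in the Frattini subgroup of `P`. -/
theorem exists_normal_inf_frattini (hM : IsPModular p M)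
    (hR : RestrictsIrr M (Subgroup.normalizer ((P : Subgroup G) : Set G))) :
    ∃ N : Subgroup G, N.Normal ∧ N ≤ bigClosure P ∧
      (frattini (P : Subgroup G)).map (P : Subgroup G).subtype ≤ N ∧
      N ⊓ (P : Subgroup G) ≤ (frattini (P : Subgroup G)).map (P : Subgroup G).subtype := by
  classical
  letI := Fintype.ofFinite G
  set Φ := (frattini (P : Subgroup G)).map (P : Subgroup G).subtype with hΦ
  have hΦP : Φ ≤ (P : Subgroup G) := Subgroup.map_subtype_le _
  let ι := {χ : IrrCharacter G // χ ∈ principalBlock M G ∧ Φ ≤ Chars.charKer (χ : G → ℂ)}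
  haveI := bigClosure_normal P
  refine ⟨bigClosure P ⊓ ⨅ χ : ι, Chars.charKer ((χ : IrrCharacter G) : G → ℂ), ?_,
    inf_le_left, le_inf (hΦP.trans (sylow_le_bigClosure P)) (le_iInf fun χ => χ.2.2), ?_⟩
  · haveI : (⨅ χ : ι, Chars.charKer ((χ : IrrCharacter G) : G → ℂ)).Normal :=
      Subgroup.normal_iInf_normal fun χ => Chars.charKer_normal (Chars.isClassFunction_coe _)
    exact Subgroup.normal_inf_normal _ _
  rintro x ⟨⟨-, hxk⟩, hxP⟩
  by_contra hx
  letI := Fintype.ofFinite (P : Subgroup G)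
  have hne : QuotientGroup.mk (s := frattini (P : Subgroup G)) ⟨x, hxP⟩ ≠ 1 := fun h =>
    hx ⟨⟨x, hxP⟩, (QuotientGroup.eq_one_iff _).1 h, rfl⟩
  obtain ⟨ψ, hψ⟩ : ∃ ψ : IrrCharacter ((P : Subgroup G) ⧸ frattini (P : Subgroup G)),
      (ψ : ((P : Subgroup G) ⧸ frattini (P : Subgroup G)) → ℂ)
        (QuotientGroup.mk (⟨x, hxP⟩ : (P : Subgroup G))) ≠
        (ψ : ((P : Subgroup G) ⧸ frattini (P : Subgroup G)) → ℂ) 1 := by
    by_contra! h
    exact hne (Chars.eq_one_of_forall_eq h)
  set μ := Chars.inflate (frattini (P : Subgroup G)) ψ with hμ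
  obtain ⟨χ, hχB, -, hcl⟩ := exists_over hM hR μ
  have hres : IsCharacter (P : Subgroup G) (fun y : (P : Subgroup G) => (χ : G → ℂ) y) :=
    Chars.isCharacter_restrict (Chars.isCharacter_coe χ) _
  -- the restriction to `N(P)` has the Frattini subgroup in its kernel
  set H := Subgroup.normalizer ((P : Subgroup G) : Set G) with hH
  have hirr := hR χ hχB
  haveI hΦH : (Φ.subgroupOf H).Normal := by
    refine Subgroup.normal_subgroupOf_of_le_normalizer fun n hn => ?_
    have key : ∀ m ∈ H, ∀ y ∈ Φ, m * y * m⁻¹ ∈ Φ := by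
      rintro m hm _ ⟨⟨y, hy⟩, hyf, rfl⟩
      let e : (P : Subgroup G) ≃* (P : Subgroup G) :=
        { toFun := fun z => ⟨m * z * m⁻¹, (Subgroup.mem_normalizer_iff.1 hm _).1 z.2⟩
          invFun := fun z => ⟨m⁻¹ * z * m, (Subgroup.mem_normalizer_iff''.1 hm _).1 z.2⟩
          left_inv := fun z => Subtype.ext (by simp [mul_assoc])
          right_inv := fun z => Subtype.ext (by simp [mul_assoc])
          map_mul' := fun z w => Subtype.ext (by simp [mul_assoc]) }
      have he : (frattini (P : Subgroup G)).map e.toMonoidHom = frattini (P : Subgroup G) :=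
        Subgroup.characteristic_iff_map_eq.1 inferInstance e
      exact ⟨e ⟨y, hy⟩, he ▸ Subgroup.mem_map_of_mem e.toMonoidHom hyf, rfl⟩
    refine Subgroup.mem_normalizer_iff.2 fun y => ⟨key n hn y, fun hy => ?_⟩
    have := key n⁻¹ (inv_mem hn) _ hy
    simpa [mul_assoc] using this
  letI := Fintype.ofFinite (frattini (P : Subgroup G))
  have hker : Φ ≤ Chars.charKer (χ : G → ℂ) := by
    suffices h : Φ.subgroupOf H ≤ Chars.charKer (fun n : H => (χ : G → ℂ) n) by
      intro y hy
      refine (Chars.mem_charKer_iff (Chars.isCharacter_coe χ)).2 ?_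
      exact (Chars.mem_charKer_iff (Chars.isCharacter_of_isIrrCharacter hirr)).1
        (h (show (⟨y, Subgroup.le_normalizer (hΦP hy)⟩ : H) ∈ Φ.subgroupOf H from
          Subgroup.mem_subgroupOf.2 hy))
    by_contra hnk
    letI := Fintype.ofFinite (Φ.subgroupOf H)
    have h0 := Chars.sum_coset_eq_zero (Φ.subgroupOf H) (⟨_, hirr⟩ : IrrCharacter H) hnk 1
    have he : ∑ y : Φ.subgroupOf H, (χ : G → ℂ) ((y : H) : G) =
        ∑ z : frattini (P : Subgroup G), (χ : G → ℂ) ((z : (P : Subgroup G)) : G) := by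
      refine (Finset.sum_bij (fun (z : frattini (P : Subgroup G)) _ =>
        (⟨⟨((z : (P : Subgroup G)) : G), Subgroup.le_normalizer (z : (P : Subgroup G)).2⟩,
          Subgroup.mem_subgroupOf.2 (Subgroup.mem_map_of_mem _ z.2)⟩ : Φ.subgroupOf H))
        (fun _ _ => Finset.mem_univ _) (fun a _ b _ h => ?_) (fun y _ => ?_) fun _ _ => rfl).symm
      · exact Subtype.ext (Subtype.ext (congrArg (fun w : Φ.subgroupOf H => ((w : H) : G)) h))
      · obtain ⟨z, hz, hzy⟩ := Subgroup.mem_subgroupOf.1 y.2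
        exact ⟨⟨z, hz⟩, Finset.mem_univ _, Subtype.ext (Subtype.ext hzy)⟩
    simp only [one_mul] at h0
    rw [he] at h0
    obtain ⟨φ, hφ, hsum⟩ := Chars.exists_add_of_classInner_ne_zero hres μ hcl
    have hφ' : IsCharacter (frattini (P : Subgroup G)) (fun z => φ (z : (P : Subgroup G))) :=
      Chars.isCharacter_restrict hφ _
    obtain ⟨m, hm⟩ := Chars.exists_nat_classInner hφ' (Chars.oneChar _)
    rw [classInner, Chars.oneChar_coe] at hm
    simp only [map_one, mul_one] at hm
    have hne0 : (Nat.card (frattini (P : Subgroup G)) : ℂ) ≠ 0 := Chars.natCard_ne_zero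
    rw [inv_mul_eq_iff_eq_mul₀ hne0] at hm
    have hfun : ∀ z : (P : Subgroup G), (χ : G → ℂ) z = (μ : _ → ℂ) z + φ z := fun z =>
      congrFun hsum z
    rw [Finset.sum_congr rfl (g := fun z : frattini (P : Subgroup G) =>
      (μ : ↥(P : Subgroup G) → ℂ) z + φ z) (fun z _ => hfun z), Finset.sum_add_distrib, hm,
      Finset.sum_congr rfl (g := fun _ => (μ : ↥(P : Subgroup G) → ℂ) 1)
        (fun (z : frattini (P : Subgroup G)) _ =>
        Chars.map_eq_map_one_of_mem_charKer (Chars.le_charKer_inflate _ ψ z.2)),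
      Finset.sum_const, Finset.card_univ, nsmul_eq_mul, ← Nat.card_eq_fintype_card,
      ← Chars.coe_charDegree, ← Nat.cast_mul, ← Nat.cast_mul, ← Nat.cast_add, Nat.cast_eq_zero,
      Nat.add_eq_zero_iff] at h0
    exact (Nat.mul_pos Nat.card_pos (Chars.charDegree_pos μ)).ne' h0.1
  have hxker : (χ : G → ℂ) x = (χ : G → ℂ) 1 :=
    Chars.map_eq_map_one_of_mem_charKer
      ((Subgroup.mem_iInf.1 hxk (⟨χ, hχB, hker⟩ : ι)))
  exact hψ (constituent_eq_one hres μ hcl (x := ⟨x, hxP⟩) hxker)

/-- The principal-block hypothesis forces p-solvability. -/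
theorem isPSolvable (hM : IsPModular p M)
    (hR : RestrictsIrr M (Subgroup.normalizer ((P : Subgroup G) : Set G))) : IsPSolvable p G := by
  classical
  letI := Fintype.ofFinite G
  obtain ⟨N, hN, hNL, hΦN, hNP⟩ := exists_normal_inf_frattini hM hR
  have hNsolv : IsPSolvable p N :=
    not_dvd_of_hasNormalPComplement_isPSolvable (Transfer.tate_normal_pComplement P N hNP)
  refine Constrained.isPSolvable_of_extension N hNsolv ?_
  set q := QuotientGroup.mk' N with hq
  haveI := bigClosure_normal P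
  set Mb := (bigClosure P).map q with hMb
  haveI : Mb.Normal := Subgroup.Normal.map inferInstance q (QuotientGroup.mk'_surjective N)
  have hquot : ¬ p ∣ Nat.card ((G ⧸ N) ⧸ Mb) := by
    rw [← Subgroup.index_eq_card]
    intro hd
    exact P.not_dvd_index ((hd.trans (Subgroup.index_map_dvd _ (QuotientGroup.mk'_surjective N))).trans
      (Subgroup.index_dvd_of_le (sylow_le_bigClosure P)))
  refine Constrained.isPSolvable_of_extension Mb ?_ (Constrained.isPSolvable_of_not_dvd hquot)
  refine not_dvd_of_hasNormalPComplement_isPSolvable ?_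
  let Q : Sylow p (G ⧸ N) := P.mapSurjective (QuotientGroup.mk'_surjective N)
  have hQle : (Q : Subgroup (G ⧸ N)) ≤ Mb := Subgroup.map_mono (sylow_le_bigClosure P)
  refine Transfer.hasNormalPComplement_of_normalizer_le_centralizer (Q.subtype hQle) ?_
  intro y hy
  refine Subgroup.mem_centralizer_iff.2 fun z hz => Subtype.ext ?_
  obtain ⟨g, hgL, hgy⟩ := y.2
  -- adjust the representative into `N(P)`
  have hPN : Subgroup.normalizer ((P : Subgroup G) : Set G) ⊔ N =
      Subgroup.normalizer ((P : Subgroup G) : Set G) ⊔ N := rfl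
  have hgnorm : ∀ w : G, w ∈ (P : Subgroup G) ⊔ N → g * w * g⁻¹ ∈ (P : Subgroup G) ⊔ N := by
    intro w hw
    have hwQ : q w ∈ (Q : Subgroup (G ⧸ N)) := by
      show q w ∈ (P : Subgroup G).map q
      have := Subgroup.mem_map_of_mem q hw
      rwa [Subgroup.map_sup, QuotientGroup.map_mk'_self, sup_bot_eq] at this
    have h1 := (Subgroup.mem_normalizer_iff.1 hy ⟨q w, hQle hwQ⟩).1
      (Subgroup.mem_subgroupOf.2 hwQ)
    have h2 : q (g * w * g⁻¹) ∈ (P : Subgroup G).map q := by
      have h3 := Subgroup.mem_subgroupOf.1 h1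
      rw [map_mul, map_mul, map_inv, hgy]
      exact h3
    obtain ⟨v, hv, hvw⟩ := h2
    have h4 : v⁻¹ * (g * w * g⁻¹) ∈ N := by
      rw [← QuotientGroup.eq_one_iff (N := N)]
      show q (v⁻¹ * (g * w * g⁻¹)) = 1
      rw [map_mul, map_inv, hvw, inv_mul_cancel]
    simpa using mul_mem (Subgroup.mem_sup_left (T := N) hv) (Subgroup.mem_sup_right h4)
  have hgP : ((P : Subgroup G).map (MulAut.conj g).toMonoidHom) ≤ (P : Subgroup G) ⊔ N := by
    rintro _ ⟨w, hw, rfl⟩
    exact hgnorm w (Subgroup.mem_sup_left hw)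
  set PN := (P : Subgroup G) ⊔ N with hPNdef
  let P₁ : Sylow p PN := P.subtype le_sup_left
  let P₂ : Sylow p PN := (g • P).subtype hgP
  obtain ⟨n, hn⟩ := MulAction.exists_smul_eq PN P₂ P₁
  have hh : (n : G) * g ∈ Subgroup.normalizer ((P : Subgroup G) : Set G) := by
    have hle : (P : Subgroup G).map (MulAut.conj ((n : G) * g)).toMonoidHom ≤ (P : Subgroup G) := by
      rintro _ ⟨x, hx, rfl⟩
      have hx2 : (⟨g * x * g⁻¹, hgP ⟨x, hx, rfl⟩⟩ : PN) ∈ (P₂ : Subgroup PN) := by
        show (g * x * g⁻¹) ∈ ((g • P : Sylow p G) : Subgroup G)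
        exact ⟨x, hx, rfl⟩
      have h5 : MulAut.conj n • (⟨g * x * g⁻¹, hgP ⟨x, hx, rfl⟩⟩ : PN) ∈ (P₁ : Subgroup PN) := by
        rw [← hn]
        exact Subgroup.smul_mem_pointwise_smul _ _ _ hx2
      have h6 : (n : G) * (g * x * g⁻¹) * (n : G)⁻¹ ∈ (P : Subgroup G) := by
        simpa [P₁, Subgroup.mem_subgroupOf, MulAut.smul_def] using h5
      show (n : G) * g * x * ((n : G) * g)⁻¹ ∈ (P : Subgroup G)
      simpa [mul_assoc] using h6
    have heq := Subgroup.eq_of_le_of_card_ge hle
      (le_of_eq (Nat.card_congr (Subgroup.equivMapOfInjective _ _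
        (MulAut.conj ((n : G) * g)).injective).toEquiv))
    refine Subgroup.mem_normalizer_iff.2 fun x => ⟨fun hx => hle ⟨x, hx, rfl⟩, fun hx => ?_⟩
    rw [← heq] at hx
    obtain ⟨y', hy', hy''⟩ := hx
    rwa [(MulAut.conj ((n : G) * g)).injective (hy'' : MulAut.conj ((n : G) * g) y' = MulAut.conj ((n : G) * g) x)] at hy'
  have hhL : (n : G) * g ∈ bigClosure P :=
    mul_mem ((sup_le (sylow_le_bigClosure P) hNL) n.2) hgL
  obtain ⟨a, b, ha, hb, hab, hap, hbp⟩ := Transfer.exists_pPart_decomposition (p := p) ((n : G) * g)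
  have haP : a ∈ (P : Subgroup G) :=
    mem_sylow_of_commute P hap (Subgroup.zpowers_le.2 hh ha)
  have hbC : b ∈ Subgroup.centralizer ((P : Subgroup G) : Set G) :=
    mem_centralizer_of_regular hM hR (Subgroup.zpowers_le.2 hh hb)
      (Subgroup.zpowers_le.2 hhL hb) hbp
  -- the image of `P` is abelian
  have hcomm : ∀ u ∈ (P : Subgroup G), ∀ w ∈ (P : Subgroup G), q u * q w = q w * q u := by
    intro u hu w hw
    rw [← map_mul, ← map_mul, QuotientGroup.mk'_apply, QuotientGroup.mk'_apply, QuotientGroup.eq]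
    refine hΦN ⟨(⟨u, hu⟩ * ⟨w, hw⟩)⁻¹ * (⟨w, hw⟩ * ⟨u, hu⟩), ?_, rfl⟩
    apply PGroup.commutator_le_frattini P.2
    have e : ((⟨u, hu⟩ : (P : Subgroup G)) * ⟨w, hw⟩)⁻¹ * (⟨w, hw⟩ * ⟨u, hu⟩) =
        ⁅(⟨w, hw⟩ : (P : Subgroup G))⁻¹, (⟨u, hu⟩ : (P : Subgroup G))⁻¹⁆ := by
      rw [commutatorElement_def]; group
    rw [e]
    exact Subgroup.commutator_mem_commutator (Subgroup.mem_top _) (Subgroup.mem_top _)
  obtain ⟨u, hu, huz⟩ : ∃ u ∈ (P : Subgroup G), q u = (z : G ⧸ N) := Subgroup.mem_subgroupOf.1 hz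
  obtain ⟨n₁, hn₁, n₂, hn₂, hnn⟩ := Subgroup.mem_sup_of_normal_right.1 n.2
  have hqn : q (n : G) = q n₁ := by
    rw [← hnn, map_mul, QuotientGroup.mk'_apply N n₂, (QuotientGroup.eq_one_iff n₂).2 hn₂, mul_one]
  have hgeq : q g = q (n₁⁻¹ * a) * q b := by
    rw [← map_mul, mul_assoc, ← hab, map_mul, map_mul, hqn, map_inv, inv_mul_cancel_left]
  rw [Subgroup.coe_mul, Subgroup.coe_mul, ← huz, ← hgy]
  show q u * q g = q g * q u
  have hb' : q u * q b = q b * q u := by
    rw [← map_mul, ← map_mul, Subgroup.mem_centralizer_iff.1 hbC u hu]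
  rw [hgeq, ← mul_assoc, hcomm u hu _ (mul_mem (inv_mem hn₁) haP), mul_assoc, hb', ← mul_assoc]

theorem normalizer_sup_core_eq_top (hM : IsPModular p M)
    (hR : RestrictsIrr M (Subgroup.normalizer ((P : Subgroup G) : Set G))) :
    Subgroup.normalizer ((P : Subgroup G) : Set G) ⊔ pPrimeCore p G = ⊤ := by
  classical
  letI := Fintype.ofFinite G
  set H := Subgroup.normalizer ((P : Subgroup G) : Set G) with hH
  set K := pPrimeCore p G with hK
  have hsolv := isPSolvable hM hR
  -- only the trivial character contributes to the multiplicity of the trivial character of `H`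
  have hsum : ∑ χ ∈ Finset.univ.filter (fun χ : IrrCharacter G => K ≤ Chars.charKer (χ : G → ℂ)),
      (χ : G → ℂ) 1 * ∑ h : H, (χ : G → ℂ) h = (Nat.card H : ℂ) := by
    rw [Finset.sum_eq_single (Chars.oneChar G)]
    · simp [Nat.card_eq_fintype_card]
    · intro χ hχ hne
      have hirr := hR χ (mem_principalBlock_of_pPrimeCore_le hM hsolv (Finset.mem_filter.1 hχ).2)
      by_cases hk : (⊤ : Subgroup H) ≤ Chars.charKer (fun n : H => (χ : G → ℂ) n)
      · exfalso
        have hc := Chars.isCharacter_coe χ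
        haveI := Chars.charKer_normal (Chars.isClassFunction_coe χ)
        have hHk : H ≤ Chars.charKer (χ : G → ℂ) := fun x hx =>
          (Chars.mem_charKer_iff hc).2 ((Chars.mem_charKer_iff
            (Chars.isCharacter_of_isIrrCharacter hirr)).1 (hk (Subgroup.mem_top (⟨x, hx⟩ : H))))
        have htop : ⊤ ≤ Chars.charKer (χ : G → ℂ) := by
          rw [← normalizer_sup_normalClosure P]
          exact sup_le hHk (Subgroup.normalClosure_le_normal (Subgroup.le_normalizer.trans hHk))
        have hdeg : charDegree (χ : G → ℂ) = 1 := by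
          simpa using Chars.charDegree_dvd_index χ ⊤ htop
        apply hne
        rw [Chars.eq_oneChar_iff]
        funext g
        rw [Chars.map_eq_map_one_of_mem_charKer (htop (Subgroup.mem_top g)),
          ← Chars.coe_charDegree, hdeg, Nat.cast_one]
      · have h0 := Chars.sum_coset_eq_zero (⊤ : Subgroup H) (⟨_, hirr⟩ : IrrCharacter H) hk 1
        simp only [one_mul] at h0
        rw [← Fintype.sum_equiv (Subgroup.topEquiv.toEquiv) (fun x : (⊤ : Subgroup H) =>
          (χ : G → ℂ) ((x : H) : G)) (fun h : H => (χ : G → ℂ) h) (fun _ => rfl)]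
        rw [h0, mul_zero]
    · intro h
      refine absurd (Finset.mem_filter.2 ⟨Finset.mem_univ _, ?_⟩) h
      intro x _
      rw [Chars.oneChar_coe]
      exact fun y => rfl
  simp only [Finset.mul_sum] at hsum
  rw [Finset.sum_comm, Finset.sum_congr rfl fun (h : H) _ => sum_le_charKer_mul K (h : G),
    ← Finset.sum_filter, Finset.sum_const, nsmul_eq_mul] at hsum
  have h1 : (Finset.univ.filter fun h : H => (h : G) ∈ K).card = Nat.card (K.subgroupOf H) := by
    rw [Nat.card_eq_fintype_card]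
    exact (Fintype.card_of_subtype _ (fun x => by simp [Subgroup.mem_subgroupOf])).symm
  rw [h1] at hsum
  have h2 : Nat.card (K.subgroupOf H) * K.index = Nat.card (K.subgroupOf H) * K.relIndex H := by
    rw [Subgroup.relIndex, Subgroup.card_mul_index]
    exact_mod_cast hsum
  have h3 := Nat.eq_of_mul_eq_mul_left Nat.card_pos h2
  rw [← Subgroup.relIndex_sup_right] at h3
  have hle : K ≤ H ⊔ K := le_sup_right
  have h4 := Subgroup.relIndex_mul_index hle
  rw [← h3] at h4
  have h5 : (H ⊔ K).index = 1 := by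
    have hpos : 0 < K.index := Nat.pos_of_ne_zero Subgroup.index_ne_zero_of_finite
    exact Nat.eq_of_mul_eq_mul_left hpos (h4.trans (mul_one _).symm)
  exact Subgroup.index_eq_one.1 h5

/-- **Isaacs–Smith.** -/
theorem pLengthLE_one (hM : IsPModular p M)
    (hR : RestrictsIrr M (Subgroup.normalizer ((P : Subgroup G) : Set G))) :
    PLengthLE p 1 G := by
  set H := Subgroup.normalizer ((P : Subgroup G) : Set G) with hH
  set K := pPrimeCore p G with hK
  have htop := normalizer_sup_core_eq_top hM hR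
  have hnorm : (K ⊔ (P : Subgroup G)).Normal := by
    rw [← Subgroup.normalizer_eq_top_iff, eq_top_iff, ← htop]
    refine sup_le (fun h hh => ?_) (le_sup_left.trans Subgroup.le_normalizer)
    have key : ∀ m ∈ H, (K ⊔ (P : Subgroup G)).map (MulAut.conj m).toMonoidHom ≤
        K ⊔ (P : Subgroup G) := by
      intro m hm
      rw [Subgroup.map_sup]
      refine sup_le_sup ?_ ?_
      · rintro _ ⟨x, hx, rfl⟩
        exact (inferInstance : K.Normal).conj_mem x hx m
      · rintro _ ⟨x, hx, rfl⟩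
        exact (Subgroup.mem_normalizer_iff.1 hm x).1 hx
    refine Subgroup.mem_normalizer_iff.2 fun x => ⟨fun hx => key h hh ⟨x, hx, rfl⟩, fun hx => ?_⟩
    have := key h⁻¹ (inv_mem hh) ⟨_, hx, rfl⟩
    simpa [mul_assoc] using this
  have h2 : K ⊔ (P : Subgroup G) ≤ (upperPSeries p G 2).1 := by
    obtain ⟨m, hm⟩ := IsPGroup.iff_card.1 P.2
    refine Constrained.le_upperPSeries_succ_of_odd (n := 1) (m := m) (by decide) hnorm ?_
    rw [Constrained.upperPSeries_one_eq, sup_comm, Subgroup.relIndex_sup_right, ← hm]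
    exact Subgroup.relIndex_dvd_card _ _
  refine top_le_iff.1 (Constrained.le_upperPSeries_succ_of_even (n := 2) (by decide)
    (inferInstance : (⊤ : Subgroup G).Normal) ?_)
  rw [Subgroup.relIndex_top_right]
  exact fun hd => P.not_dvd_index ((hd.trans (Subgroup.index_dvd_of_le h2)).trans
    (Subgroup.index_dvd_of_le le_sup_right))

theorem restrictsIrr_of_pLengthLE_one (hM : IsPModular p M) (h : PLengthLE p 1 G) :
    RestrictsIrr M (Subgroup.normalizer ((P : Subgroup G) : Set G)) := by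
  classical
  letI := Fintype.ofFinite G
  set H := Subgroup.normalizer ((P : Subgroup G) : Set G) with hH
  obtain ⟨K, hKn, hKc, -, -, hfac⟩ := PLength.exists_frattini_of_pLengthLE_one h P
  intro χ hχ
  haveI := hM.2.1
  have hker : K ≤ Chars.charKer (χ : G → ℂ) :=
    PrincipalLinear.le_charKer hM hχ K (Transfer.not_dvd_of_coprime hKc)
  have hc : IsCharacter H (fun n : H => (χ : G → ℂ) n) :=
    Chars.isCharacter_restrict (Chars.isCharacter_coe χ) H
  refine Chars.isIrrCharacter_of_classInner_self hc ?_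
  have hval : ∀ (a : H) (k : K), (χ : G → ℂ) ((a : G) * k) = (χ : G → ℂ) a := fun a k => by
    rw [Chars.classFunction_mul_comm (Chars.isClassFunction_coe χ)]
    exact Chars.map_mul_of_mem_charKer (hker k.2) _
  -- the fibres of `H × K → G` are cosets of `H ⊓ K`
  have hfib : ∀ g : G, Fintype.card {x : H × K // (x.1 : G) * (x.2 : G) = g} =
      Fintype.card (K.subgroupOf H) := by
    intro g
    obtain ⟨a, ha, k, hk, rfl⟩ := hfac g
    refine Fintype.card_congr
      { toFun := fun x => ⟨⟨a, ha⟩⁻¹ * x.1.1, ?_⟩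
        invFun := fun d => ⟨(⟨a, ha⟩ * (d : H), ⟨((d : H) : G)⁻¹ * k, ?_⟩), ?_⟩
        left_inv := fun x => ?_
        right_inv := fun d => ?_ }
    · rw [Subgroup.mem_subgroupOf]
      have e : ((x.1.1 : H) : G) * (x.1.2 : G) = a * k := x.2
      have e2 : ((⟨a, ha⟩ : H) : G)⁻¹ * (x.1.1 : G) = k * (x.1.2 : G)⁻¹ := by
        rw [eq_mul_inv_iff_mul_eq, mul_assoc, e, inv_mul_cancel_left]
      show ((⟨a, ha⟩ : H) : G)⁻¹ * (x.1.1 : G) ∈ K
      rw [e2]
      exact mul_mem hk (inv_mem x.1.2.2)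
    · exact mul_mem (inv_mem (Subgroup.mem_subgroupOf.1 d.2)) hk
    · show a * ((d : H) : G) * (((d : H) : G)⁻¹ * k) = a * k
      group
    · have e : ((x.1.1 : H) : G) * (x.1.2 : G) = a * k := x.2
      refine Subtype.ext (Prod.ext (mul_inv_cancel_left _ _) (Subtype.ext ?_))
      show (a⁻¹ * (x.1.1 : G))⁻¹ * k = (x.1.2 : G)
      rw [mul_inv_rev, inv_inv, mul_assoc]
      exact inv_mul_eq_iff_eq_mul.2 e.symm
    · exact Subtype.ext (inv_mul_cancel_left _ _)
  have hsum : ∀ f : G → ℂ, ∑ x : H × K, f ((x.1 : G) * (x.2 : G)) =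
      (Fintype.card (K.subgroupOf H) : ℂ) * ∑ g : G, f g := by
    intro f
    rw [← Finset.sum_fiberwise Finset.univ (fun x : H × K => (x.1 : G) * (x.2 : G)), Finset.mul_sum]
    refine Finset.sum_congr rfl fun g _ => ?_
    rw [Finset.sum_congr rfl (g := fun _ => f g) (fun x hx => by rw [(Finset.mem_filter.1 hx).2]),
      Finset.sum_const, nsmul_eq_mul, ← hfib g, Fintype.card_subtype]
  have h1 := hsum fun g => (χ : G → ℂ) g * conj ((χ : G → ℂ) g)
  have h2 := hsum fun _ => (1 : ℂ)
  simp only [Finset.sum_const, Finset.card_univ, Fintype.card_prod, nsmul_eq_mul, mul_one] at h2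
  rw [Fintype.sum_prod_type, Finset.sum_congr rfl fun a _ => Finset.sum_congr rfl fun k _ => by
    rw [hval a k]] at h1
  simp only [Finset.sum_const, Finset.card_univ, nsmul_eq_mul] at h1
  rw [← Finset.mul_sum] at h1
  have hself := Chars.classInner_self χ
  rw [classInner, inv_mul_eq_iff_eq_mul₀ Chars.natCard_ne_zero, mul_one,
    Nat.card_eq_fintype_card] at hself
  rw [classInner, inv_mul_eq_iff_eq_mul₀ Chars.natCard_ne_zero, mul_one, Nat.card_eq_fintype_card]
  rw [hself] at h1
  have hK0 : (Fintype.card K : ℂ) ≠ 0 := by exact_mod_cast Fintype.card_ne_zero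
  refine mul_left_cancel₀ hK0 (h1.trans ?_)
  rw [← h2]
  push_cast
  ring

end CfsgLib.Blocks.IsaacsSmith
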